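import Mathlib

/-! Klein four-subgroups generated by two commuting involutions. -/

set_option autoImplicit false

namespace Cfsg.Agent.Lib.Invol

variable {G : Type*} [Group G]

/-- The subgroup `{1, a, b, a * b}` -/
def kleinPair (a b : G) (ha : a * a = 1) (hb : b * b = 1) (hab : a * b = b * a) : Subgroup G where
  carrier := {1, a, b, a * b}
  one_mem' := by simp
  mul_mem' := by
    have e1 : a * (a * b) = b := by rw [← mul_assoc, ha, one_mul]
    have e2 : b * (a * b) = a := by rw [hab, ← mul_assoc, hb, one_mul]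
    have e3 : a * b * a = b := by rw [hab, mul_assoc, ha, mul_one]
    have e4 : a * b * b = a := by rw [mul_assoc, hb, mul_one]
    have e5 : a * b * (a * b) = 1 := by rw [← mul_assoc, e3, hb]
    rintro x y (rfl | rfl | rfl | rfl) (rfl | rfl | rfl | rfl) <;>
      simp [ha, hb, e1, e2, e3, e4, e5, ← hab]
  inv_mem' := by
    have ia : a⁻¹ = a := inv_eq_of_mul_eq_one_left ha
    have ib : b⁻¹ = b := inv_eq_of_mul_eq_one_left hb
    rintro x (rfl | rfl | rfl | rfl) <;> simp [ia, ib, ← hab]

theorem mem_kleinPair {a b : G} {ha : a * a = 1} {hb : b * b = 1} {hab : a * b = b * a} {x : G} :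
    x ∈ kleinPair a b ha hb hab ↔ x = 1 ∨ x = a ∨ x = b ∨ x = a * b := Iff.rfl

theorem isKleinFour_kleinPair {a b : G} {ha : a * a = 1} {hb : b * b = 1} {hab : a * b = b * a}
    (ha1 : a ≠ 1) (hb1 : b ≠ 1) (hne : a ≠ b) : IsKleinFour (kleinPair a b ha hb hab) := by
  classical
  have h1 : a * b ≠ 1 := by
    intro h
    apply hne
    have h2 : a * b = a * a := by rw [h, ha]
    exact (mul_left_cancel h2).symm
  have h2 : a * b ≠ a := fun h => hb1 (by simpa using h)
  have h3 : a * b ≠ b := fun h => ha1 (by simpa using h)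
  have hc : Nat.card (kleinPair a b ha hb hab) = 4 := by
    have e : ((kleinPair a b ha hb hab : Subgroup G) : Set G) = (({1, a, b, a * b} : Finset G) : Set G) := by
      ext x
      simp [mem_kleinPair]
    have e2 : Nat.card (kleinPair a b ha hb hab) = Nat.card (((({1, a, b, a * b} : Finset G) : Set G)) : Type _) := by
      rw [← e]
      rfl
    rw [e2, Nat.card_coe_set_eq, Set.ncard_coe_finset]
    rw [Finset.card_insert_of_notMem, Finset.card_insert_of_notMem, Finset.card_insert_of_notMem, Finset.card_singleton]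
    · simp only [Finset.mem_singleton]
      exact fun h => h3 h.symm
    · simp only [Finset.mem_insert, Finset.mem_singleton, not_or]
      exact ⟨hne, fun h => h2 h.symm⟩
    · simp only [Finset.mem_insert, Finset.mem_singleton, not_or]
      exact ⟨ha1.symm, hb1.symm, h1.symm⟩
  haveI : Fact (Nat.Prime 2) := ⟨Nat.prime_two⟩
  haveI : Nontrivial (kleinPair a b ha hb hab) := by
    refine ⟨⟨⟨a, Or.inr (Or.inl rfl)⟩, 1, ?_⟩⟩
    intro h
    exact ha1 (congrArg Subtype.val h)
  refine ⟨hc, ?_⟩
  rw [Monoid.exponent_eq_prime_iff Nat.prime_two]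
  rintro ⟨x, hx⟩ hx1
  rw [Subgroup.orderOf_mk]
  apply orderOf_eq_prime
  · rw [sq]
    rcases hx with rfl | rfl | rfl | rfl
    · simp
    · exact ha
    · exact hb
    · rw [mul_assoc, ← mul_assoc b, ← hab, mul_assoc, hb, mul_one, ha]
  · intro h
    exact hx1 (Subtype.ext h)

/-- Two distinct nontrivial elements in a subgroup with more than 2 elements -/
theorem exists_pair_of_two_lt_card [Finite G] (C : Subgroup G) (h : 2 < Nat.card C) :
    ∃ x ∈ C, ∃ y ∈ C, x ≠ 1 ∧ y ≠ 1 ∧ x ≠ y := by
  classical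
  cases nonempty_fintype C
  rw [Nat.card_eq_fintype_card, Fintype.two_lt_card_iff] at h
  obtain ⟨a, b, c, hab, hac, hbc⟩ := h
  have val : ∀ x y : C, x ≠ y → (x : G) ≠ y := fun x y h h2 => h (Subtype.ext h2)
  by_cases ha : (a : G) = 1
  · refine ⟨b, b.2, c, c.2, ?_, ?_, val _ _ hbc⟩
    · intro h
      exact val _ _ hab (ha.trans h.symm)
    · intro h
      exact val _ _ hac (ha.trans h.symm)
  · by_cases hb : (b : G) = 1
    · refine ⟨a, a.2, c, c.2, ha, ?_, val _ _ hac⟩
      intro h
      exact val _ _ hbc (hb.trans h.symm)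
    · exact ⟨a, a.2, b, b.2, ha, hb, val _ _ hab⟩

/-- Elements of a Klein four-subgroup: squares and commutation -/
theorem klein_sq {U : Subgroup G} (hU : IsKleinFour U) {x : G} (hx : x ∈ U) : x * x = 1 :=
  congrArg Subtype.val (IsKleinFour.mul_self (G := U) ⟨x, hx⟩)

theorem klein_comm {U : Subgroup G} (hU : IsKleinFour U) {x y : G} (hx : x ∈ U) (hy : y ∈ U) : x * y = y * x :=
  congrArg Subtype.val ((IsKleinFour.isMulCommutative (G := U)).is_comm.comm ⟨x, hx⟩ ⟨y, hy⟩)

theorem klein_two_lt {U : Subgroup G} (hU : IsKleinFour U) : 2 < Nat.card U := by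
  rw [IsKleinFour.card_four]
  norm_num

end Cfsg.Agent.Lib.Invol
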